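import Cfsg.Agent.OD.Pre
import Cfsg.Agent.H6.SoC.O0
import Cfsg.Agent.H6.SoC.Q0
set_option autoImplicit false
set_option maxRecDepth 100000
set_option Elab.async false
set_option linter.all false
namespace CfH6.SoC
open CfH6 CfH6.D MulAction
theorem exO : ∃ ρ : S32B.G →* Equiv.Perm ℕ, ∀ x < 8, ∀ p < 5346, fO (Nat.succ x) p = ρ (S32B.el x) p ∧ ρ (S32B.el x) p < 5346 :=
  tab_hom (fun x => fO (Nat.succ x)) S32B.hhom (by decide +kernel) (iO0) (rO0)
noncomputable def rhoO : S32B.G →* Equiv.Perm ℕ := Classical.choose exO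
@[reducible] noncomputable def actO : MulAction S32B.G ℕ := MulAction.compHom ℕ rhoO
section
attribute [local instance] actO
theorem tb0O : Tb (fun x => fO (Nat.succ x)) 5346 8 S32B.el := Classical.choose_spec exO
theorem tbO : Tb fO 5346 64 S32D.lt := tb0O.slp (by decide) (dO0) (sO0)
noncomputable def trO : ℕ → ℕ → ℕ := trC fO 6 63 8
theorem trsO : Trs trO S32D.cd 5346 := tbO.trs 8 (by decide)
noncomputable def QO : RP := ⟨(nat_lit 5346), (nat_lit 41), (nat_lit 98), (nat_lit 12), (nat_lit 4095), (nat_lit 5), (nat_lit 31)⟩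
theorem lowO : Low (⊤ : Subgroup S32B.G) [0] 5346 := levs_low (code := fun k => k) (ok := fun _ => 0) (Q := QO) trsO (fun _ _ => Subgroup.mem_top _) levO _ _ (by decide +kernel)
noncomputable def stO : Subgroup S32B.G := stabilizer _ 0
end
end CfH6.SoC
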